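import Mathlib
import Cfsg.Prelude.Def_Characters
import Cfsg.Prelude.Def_OddOrderChar
import Cfsg.Agent.Lib.Helper57.PF12.L1
import Cfsg.Agent.Lib.Helper75.CliffordCorr
import Cfsg.Agent.S1536

/-!
# PF12 package (NI) (helper62): the norm bound for induced characters

For a normal Hall subgroup `H` of `L` and `1 ≠ θ ∈ Irr(H)`, the inertia group `T` of `θ` has the
property that every element of `T` centralizes a nontrivial element of `H` (S1536), and
`‖Ind θ‖² = |T| / |H|`; so any bound `|T| e + 2 |H| ≤ cK |H|` for such subgroups `T` gives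
`‖Ind θ‖² e ≤ cK - 2`.
-/

set_option autoImplicit false

namespace Cfsg.Agent.Lib.Helper62.PF12

open Cfsg

universe u

theorem norm_ind_bound {L : Type u} [Group L] [Fintype L] (H : Subgroup L) [hn : H.Normal]
    (hHall : Nat.Coprime (Nat.card H) H.index) (e cK : ℕ)
    (hST : ∀ T : Subgroup L, H ≤ T →
      (∀ x ∈ T, x ∉ H → ∃ h ∈ H, h ≠ 1 ∧ x * h = h * x) →
        Nat.card T * e + 2 * Nat.card H ≤ cK * Nat.card H)
    (θ : H → ℂ) (hθ : IsIrrCharacter H θ) (hne : θ ≠ fun _ => 1) :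
    (classInner (indFun H θ) (indFun H θ)).re * (e : ℝ) ≤ (cK : ℝ) - 2 := by
  classical
  -- the inertia subgroup
  obtain ⟨T, hTdef⟩ : ∃ T : Subgroup L, T = Cfsg.Agent.Lib.Helper75.inertia H θ := ⟨_, rfl⟩
  have hT : ∀ x : L, x ∈ T ↔ ∀ h : H, θ ⟨x * h * x⁻¹, hn.conj_mem h h.2 x⟩ = θ h := by
    intro x
    rw [hTdef]
    exact Cfsg.Agent.Lib.Helper75.mem_inertia_iff' H θ x
  have hcf : IsClassFunction H θ := by
    obtain ⟨n, ρ, _, hρ⟩ := hθ
    rw [← hρ]
    exact fun g h => ρ.char_conj g h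
  have hHT : H ≤ T := by
    rw [hTdef]
    exact Cfsg.Agent.Lib.Helper75.le_inertia H hcf
  have hcent : ∀ x ∈ T, x ∉ H → ∃ h ∈ H, h ≠ 1 ∧ x * h = h * x := by
    intro x hx _
    apply (Cfsg.Agent.S1536.result H hHall x).1
    refine ⟨θ, hθ, hne, ?_⟩
    funext h
    exact (hT x).1 hx h
  have hbound := hST T hHT hcent
  have hnorm := Cfsg.Agent.Lib.Helper57.PF12.norm_indFun H θ hθ T hT
  rw [hnorm]
  have hHpos : (0 : ℝ) < (Nat.card H : ℝ) := by
    exact_mod_cast Nat.card_pos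
  have hre : ((Nat.card T : ℂ) / (Nat.card H : ℂ)).re = (Nat.card T : ℝ) / (Nat.card H : ℝ) := by
    have : ((Nat.card T : ℂ) / (Nat.card H : ℂ)) = (((Nat.card T : ℝ) / (Nat.card H : ℝ) : ℝ) : ℂ) := by
      push_cast
      rfl
    rw [this, Complex.ofReal_re]
  rw [hre]
  have hb : (Nat.card T : ℝ) * e + 2 * Nat.card H ≤ cK * Nat.card H := by
    exact_mod_cast hbound
  rw [div_mul_eq_mul_div, div_le_iff₀ hHpos]
  linarith

end Cfsg.Agent.Lib.Helper62.PF12
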