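import Mathlib
import Cfsg.Agent.Lib.Helper3.CopConj
import Cfsg.Agent.Lib.Helper3.PF12.Congruence

/-!
# PF12 / S1541: the glue lemmas (FA) and (RL) (helper62)

`L ≤ G`, `H ⊴ L`, `u ∈ L` of prime order `p` coprime to `|H|`.  Every element `x ∉ H` of
`H ⟨u⟩` is `H`-conjugate to `c * u ^ i` with `c ∈ C_H(u ^ i)` (coprime conjugation in a coset).

* `hFA_of`: if every nonidentity element of `L` commuting with a nonidentity element of `H`
  lies in `AL`, and `u` commutes with a nonidentity element of `H`, then `H ⟨u⟩ ∖ 1 ⊆ AL`.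
* `hRL_of`: if `C_G(u) ≤ L` then `C_G(x) ≤ L` for every `x ∈ H ⟨u⟩ ∖ H`, hence `RL x = ⊥`.
-/

set_option autoImplicit false

namespace Cfsg.Agent.Lib.Helper62.PF12

open Cfsg.Agent.Lib.Helper3

/-- The common core: an element `x = h * u ^ i` (`0 < i < p`) of `H ⟨u⟩ ∖ H` is conjugate under
`v ∈ H` to `c * u ^ i` with `c ∈ H` commuting with `u ^ i`; moreover `u` is a power of `u ^ i` and
`u ^ i` is a power of `c * u ^ i`. -/
theorem exists_conj_data {Λ : Type*} [Group Λ] [Finite Λ] (H : Subgroup Λ) [hN : H.Normal]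
    (u : Λ) (p : ℕ) (hp : p.Prime) (hu : orderOf u = p) (hcop : Nat.Coprime p (Nat.card H))
    (x : Λ) (hx : x ∈ H ⊔ Subgroup.zpowers u) (hxH : x ∉ H) :
    ∃ v ∈ H, ∃ c ∈ H, ∃ a : Λ, Commute c a ∧ v * x * v⁻¹ = c * a ∧
      (∃ j : ℕ, a ^ j = u) ∧ (∃ i : ℕ, a = u ^ i) ∧ ∃ m : ℕ, (c * a) ^ m = a := by
  obtain ⟨h, hh, i, hi, rfl⟩ := (Cfsg.Agent.Lib.Helper3.PF12.mem_sup_zpowers H u hp hu x).1 hx
  have hi0 : i ≠ 0 := by
    rintro rfl
    apply hxH
    simpa using hh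
  have hcopi : Nat.Coprime i p := by
    rw [Nat.coprime_comm]
    exact (Nat.Prime.coprime_iff_not_dvd hp).2
      (fun hd => hi0 (Nat.eq_zero_of_dvd_of_lt hd hi))
  have horda : orderOf (u ^ i) = p := by
    have h1 : (orderOf u).Coprime i := by rw [hu]; exact hcopi.symm
    rw [h1.orderOf_pow, hu]
  have ha : u ^ i ∈ Subgroup.normalizer (H : Set Λ) := by
    rw [Subgroup.mem_normalizer_iff]
    intro g
    exact ⟨fun hg => hN.conj_mem g hg _, fun hg => by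
      have h2 := hN.conj_mem _ hg (u ^ i)⁻¹
      simpa [mul_assoc] using h2⟩
  have hcop' : (orderOf (u ^ i)).Coprime (Nat.card H) := by rw [horda]; exact hcop
  obtain ⟨v, hv, c, hc, hcomm, e⟩ :=
    CopConj.exists_conj_mem_centralizer_coset H (u ^ i) ha hcop' h hh
  refine ⟨v, hv, c, hc, u ^ i, hcomm, e, ?_, ⟨i, rfl⟩, ?_⟩
  · obtain ⟨j, -, hj⟩ := Nat.exists_mul_mod_eq_one_of_coprime hcopi hp.one_lt
    refine ⟨j, ?_⟩
    rw [← pow_mul, ← pow_mod_orderOf, hu, hj, pow_one]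
  · obtain ⟨m, hm1, hm0⟩ := Nat.chineseRemainder hcop' 1 0
    exact ⟨m, CopConj.pow_mul_eq hm1 hm0 hc hcomm⟩

/-- (FA) -/
theorem hFA_of {G : Type*} [Group G] [Finite G] {L : Subgroup G} (H : Subgroup L) [H.Normal]
    (u : L) (p : ℕ) (hp : p.Prime) (hu : orderOf u = p) (hcop : Nat.Coprime p (Nat.card H))
    (AL : Set G)
    (hAL : ∀ x : L, x ≠ 1 → (∃ h ∈ H, h ≠ 1 ∧ x * h = h * x) → (x : G) ∈ AL)
    (hHA : ∀ x ∈ H, x ≠ 1 → ∃ h ∈ H, h ≠ 1 ∧ x * h = h * x)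
    (hxu : ∃ x ∈ H, x ≠ 1 ∧ x * u = u * x) :
    ∀ x : L, x ∈ H ⊔ Subgroup.zpowers u → x ≠ 1 → (x : G) ∈ AL := by
  intro x hx hx1
  by_cases hxH : x ∈ H
  · exact hAL x hx1 (hHA x hxH hx1)
  obtain ⟨v, hv, c, hc, a, hcomm, e, -, ⟨i, hai⟩, -⟩ :=
    exists_conj_data H u p hp hu hcop x hx hxH
  -- a nonidentity element of `H` commuting with `c * a`
  have hex : ∃ c' ∈ H, c' ≠ 1 ∧ (c * a) * c' = c' * (c * a) := by
    by_cases hc1 : c = 1
    · obtain ⟨x₀, hx₀, hx₀1, hx₀u⟩ := hxu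
      refine ⟨x₀, hx₀, hx₀1, ?_⟩
      have h1 : Commute x₀ a := by
        rw [hai]
        exact (show Commute x₀ u from hx₀u).pow_right i
      rw [hc1, one_mul]
      exact h1.eq.symm
    · refine ⟨c, hc, hc1, ?_⟩
      rw [mul_assoc, hcomm.eq.symm]
  obtain ⟨c', hc', hc'1, hcc⟩ := hex
  apply hAL x hx1
  refine ⟨v⁻¹ * c' * v, H.mul_mem (H.mul_mem (H.inv_mem hv) hc') hv, ?_, ?_⟩
  · intro h1
    apply hc'1
    have h2 : c' = v * (v⁻¹ * c' * v) * v⁻¹ := by group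
    rw [h2, h1]; group
  · have hx' : x = v⁻¹ * (c * a) * v := by rw [← e]; group
    calc x * (v⁻¹ * c' * v) = v⁻¹ * ((c * a) * c') * v := by rw [hx']; group
      _ = v⁻¹ * (c' * (c * a)) * v := by rw [hcc]
      _ = (v⁻¹ * c' * v) * x := by rw [hx']; group

/-- (RL) -/
theorem hRL_of {G : Type*} [Group G] [Finite G] {L : Subgroup G} (H : Subgroup L) [H.Normal]
    (u : L) (p : ℕ) (hp : p.Prime) (hu : orderOf u = p) (hcop : Nat.Coprime p (Nat.card H))
    (RL : G → Subgroup G)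
    (hR0 : ∀ x : L, Subgroup.centralizer {(x : G)} ≤ L → RL (x : G) = ⊥)
    (hCu : Subgroup.centralizer {(u : G)} ≤ L) :
    ∀ x : L, x ∈ H ⊔ Subgroup.zpowers u → x ∉ H → RL (x : G) = ⊥ := by
  intro x hx hxH
  obtain ⟨v, -, c, -, a, -, e, ⟨j, haj⟩, -, ⟨m, hm⟩⟩ :=
    exists_conj_data H u p hp hu hcop x hx hxH
  apply hR0 x
  intro g hg
  rw [CopConj.mem_centralizer_singleton] at hg
  -- `v g v⁻¹` commutes with `c * a`, hence with `a` and with `u`
  have eG : (v : G) * (x : G) * (v : G)⁻¹ = (c : G) * (a : G) := by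
    have h1 := congrArg (fun y : L => (y : G)) e
    simpa using h1
  have h1 : Commute ((v : G) * g * (v : G)⁻¹) ((c : G) * (a : G)) := by
    rw [← eG]
    show (v : G) * g * (v : G)⁻¹ * ((v : G) * (x : G) * (v : G)⁻¹) =
      (v : G) * (x : G) * (v : G)⁻¹ * ((v : G) * g * (v : G)⁻¹)
    calc (v : G) * g * (v : G)⁻¹ * ((v : G) * (x : G) * (v : G)⁻¹)
        = (v : G) * (g * (x : G)) * (v : G)⁻¹ := by group
      _ = (v : G) * ((x : G) * g) * (v : G)⁻¹ := by rw [hg]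
      _ = (v : G) * (x : G) * (v : G)⁻¹ * ((v : G) * g * (v : G)⁻¹) := by group
  have h2 : Commute ((v : G) * g * (v : G)⁻¹) (a : G) := by
    have h3 := h1.pow_right m
    have h4 : ((c : G) * (a : G)) ^ m = (a : G) := by
      have h5 := congrArg (fun y : L => (y : G)) hm
      simpa using h5
    rwa [h4] at h3
  have h3 : Commute ((v : G) * g * (v : G)⁻¹) (u : G) := by
    have h4 := h2.pow_right j
    have h5 : (a : G) ^ j = (u : G) := by
      have h6 := congrArg (fun y : L => (y : G)) haj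
      simpa using h6
    rwa [h5] at h4
  have h4 : (v : G) * g * (v : G)⁻¹ ∈ L := by
    apply hCu
    rw [CopConj.mem_centralizer_singleton]
    exact h3.eq.symm
  have h5 : g = (v : G)⁻¹ * ((v : G) * g * (v : G)⁻¹) * (v : G) := by group
  rw [h5]
  exact L.mul_mem (L.mul_mem (L.inv_mem v.2) h4) v.2

end Cfsg.Agent.Lib.Helper62.PF12
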